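import Cfsg.Agent.H66.Util2
import Cfsg.Agent.Cop.Basic
import Cfsg.Agent.Solv.Frattini

set_option autoImplicit false

namespace Cfsg.Agent.H66

variable {G : Type*} [Group G]

/-- `|P / Φ(P)|` divides `p ^ rank P`. -/
theorem card_frattini_quotient_dvd {P : Type*} [Group P] [Finite P] {p : ℕ} [hp : Fact p.Prime] (hP : IsPGroup p P) :
    Nat.card (P ⧸ frattini P) ∣ p ^ Group.rank P := by
  let _ : CommGroup (P ⧸ frattini P) :=
    { (inferInstance : Group (P ⧸ frattini P)) with
      mul_comm := ((Subgroup.Normal.quotient_commutative_iff_commutator_le).mpr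
        (Cfsg.Agent.Solv.commutator_le_frattini_of_pGroup hP)).is_comm.comm }
  have h1 : ∀ g : P ⧸ frattini P, g ^ p = 1 := by
    intro g
    obtain ⟨x, rfl⟩ := QuotientGroup.mk'_surjective _ g
    rw [← map_pow]
    exact (QuotientGroup.eq_one_iff _).2 (Cfsg.Agent.Solv.pow_mem_frattini_of_pGroup hP x)
  have h2 := card_dvd_exponent_pow_rank' (P ⧸ frattini P) h1
  refine h2.trans (pow_dvd_pow p ?_)
  exact Group.rank_le_of_surjective (QuotientGroup.mk' (frattini P)) (QuotientGroup.mk'_surjective _)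

/-- A `q`-group acting on a `p`-group of rank `d` acts trivially unless `q` divides some `p ^ i - 1`, `1 ≤ i ≤ d`. -/
theorem le_centralizer_of_qgroup [Finite G] {p q : ℕ} [hp : Fact p.Prime] [hq : Fact q.Prime] (hqp : q ≠ p)
    {A P : Subgroup G} (hA : IsPGroup q A) (hP : IsPGroup p P) (hAP : A ≤ Subgroup.normalizer (P : Set G))
    (d : ℕ) (hd : Group.rank P ≤ d) (hdiv : ∀ i, 1 ≤ i → i ≤ d → ¬ q ∣ p ^ i - 1) :
    A ≤ Subgroup.centralizer (P : Set G) := by
  classical
  have hcomap : ∀ a : A, (frattini P) ≤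
      (frattini P).comap (((Subgroup.normalizerMonoidHom P) (Subgroup.inclusion hAP a)) : P ≃* P).toMonoidHom := by
    intro a
    have : (frattini P).Characteristic := inferInstance
    exact (Subgroup.characteristic_iff_comap_eq.1 this _).ge
  let act : MulAction A (P ⧸ frattini P) :=
    { smul := fun a v => QuotientGroup.map (frattini P) (frattini P)
        (((Subgroup.normalizerMonoidHom P) (Subgroup.inclusion hAP a)) : P ≃* P).toMonoidHom (hcomap a) v
      one_smul := by
        intro v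
        obtain ⟨x, rfl⟩ := QuotientGroup.mk_surjective v
        show QuotientGroup.map _ _ _ _ _ = _
        rw [QuotientGroup.map_mk]
        simp
      mul_smul := by
        intro a b v
        obtain ⟨x, rfl⟩ := QuotientGroup.mk_surjective v
        show QuotientGroup.map _ _ _ _ _ = QuotientGroup.map _ _ _ _ (QuotientGroup.map _ _ _ _ _)
        rw [QuotientGroup.map_mk, QuotientGroup.map_mk, QuotientGroup.map_mk]
        simp }
  have hsmul : ∀ (a : A) (v : P ⧸ frattini P), a • v = QuotientGroup.map (frattini P) (frattini P)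
        (((Subgroup.normalizerMonoidHom P) (Subgroup.inclusion hAP a)) : P ≃* P).toMonoidHom (hcomap a) v :=
    fun _ _ => rfl
  let F : Subgroup (P ⧸ frattini P) :=
    { carrier := MulAction.fixedPoints A (P ⧸ frattini P)
      one_mem' := by
        intro a
        rw [hsmul, map_one]
      mul_mem' := by
        intro x y hx hy a
        have h1 := hx a
        have h2 := hy a
        rw [hsmul] at h1 h2 ⊢
        rw [map_mul, h1, h2]
      inv_mem' := by
        intro x hx a
        have h1 := hx a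
        rw [hsmul] at h1 ⊢
        rw [map_inv, h1] }
  have hmod := hA.card_modEq_card_fixedPoints (P ⧸ frattini P)
  have hF : Nat.card F = Nat.card (MulAction.fixedPoints A (P ⧸ frattini P)) := rfl
  rw [← hF] at hmod
  obtain ⟨d', hd', hd2⟩ := (Nat.dvd_prime_pow hp.out).1 (card_frattini_quotient_dvd hP)
  obtain ⟨e, he, he2⟩ := (Nat.dvd_prime_pow hp.out).1 (hd2 ▸ Subgroup.card_subgroup_dvd_card F)
  have hFtop : F = ⊤ := by
    rw [← Subgroup.card_eq_iff_eq_top]
    rw [hd2, he2]
    congr 1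
    by_contra hne
    have hlt : e < d' := lt_of_le_of_ne he hne
    rw [hd2, he2] at hmod
    have h1 : q ∣ p ^ d' - p ^ e := (Nat.modEq_iff_dvd' (Nat.pow_le_pow_right hp.out.pos he)).1 hmod.symm
    have h2 : p ^ d' - p ^ e = p ^ e * (p ^ (d' - e) - 1) := by
      rw [Nat.mul_sub, ← pow_add, Nat.add_sub_cancel' he, mul_one]
    rw [h2] at h1
    rcases (Nat.Prime.dvd_mul hq.out).1 h1 with h3 | h3
    · exact hqp ((Nat.prime_dvd_prime_iff_eq hq.out hp.out).1 (hq.out.dvd_of_dvd_pow h3))
    · exact hdiv (d' - e) (by omega) (by omega) h3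
  apply Cfsg.Agent.Cop.le_centralizer_of_frattini hAP
  · obtain ⟨k, hk⟩ := IsPGroup.iff_card.1 hA
    obtain ⟨l, hl⟩ := IsPGroup.iff_card.1 (hP.to_subgroup (frattini P))
    rw [hk, hl]
    exact Nat.Coprime.pow _ _ ((Nat.coprime_primes hq.out hp.out).2 hqp)
  · intro a ha k hk
    have h1 : (QuotientGroup.mk (⟨k, hk⟩ : P) : P ⧸ frattini P) ∈ F := by rw [hFtop]; exact Subgroup.mem_top _
    have h2 := h1 ⟨a, ha⟩
    rw [hsmul, QuotientGroup.map_mk] at h2
    have h3 := QuotientGroup.eq.1 h2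
    refine ⟨⟨a * k * a⁻¹ * k⁻¹, ?_⟩, ?_, rfl⟩
    · exact P.mul_mem ((Subgroup.mem_normalizer_iff.1 (hAP ha) k).1 hk) (P.inv_mem hk)
    · have h4 := (inferInstance : (frattini P).Normal).conj_mem _ ((frattini P).inv_mem h3) (⟨k, hk⟩ : P)
      have h5 : ∀ y x : P, x * (y⁻¹ * x)⁻¹ * x⁻¹ = y * x⁻¹ := by intro y x; group
      rw [h5] at h4
      exact h4

theorem le_centralizer_of_coprime_rank [Finite G] {p : ℕ} [hp : Fact p.Prime]
    {A P : Subgroup G} (hA : (Nat.card A).Coprime p) (hP : IsPGroup p P) (hAP : A ≤ Subgroup.normalizer (P : Set G))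
    (d : ℕ) (hd : Group.rank P ≤ d)
    (hdiv : ∀ q : ℕ, q.Prime → q ∣ Nat.card A → ∀ i, 1 ≤ i → i ≤ d → ¬ q ∣ p ^ i - 1) :
    A ≤ Subgroup.centralizer (P : Set G) := by
  rw [← Subgroup.subgroupOf_eq_top]
  apply eq_top_of_sylow_le
  intro q hq
  obtain ⟨Q⟩ : Nonempty (Sylow q A) := inferInstance
  refine ⟨Q, ?_⟩
  by_cases hqA : q ∣ Nat.card A
  · have hqp : q ≠ p := by
      rintro rfl
      exact ((Nat.Prime.coprime_iff_not_dvd hq.out).1 hA.symm) hqA
    have h1 := le_centralizer_of_qgroup hqp (A := (Q : Subgroup A).map A.subtype) (P := P) (Q.isPGroup'.map _) hP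
      (((Subgroup.map_subtype_le _)).trans hAP) d hd (hdiv q hq.out hqA)
    intro x hx
    exact h1 (Subgroup.mem_map_of_mem _ hx)
  · have h1 : (Q : Subgroup A) = ⊥ := by
      rw [Subgroup.eq_bot_iff_card]
      obtain ⟨k, hk⟩ := IsPGroup.iff_card.1 Q.isPGroup'
      rcases Nat.eq_zero_or_pos k with hk0 | hk0
      · rw [hk, hk0, pow_zero]
      · exfalso
        apply hqA
        refine Dvd.dvd.trans ?_ (Subgroup.card_subgroup_dvd_card (Q : Subgroup A))
        rw [hk]; exact dvd_pow_self q (by omega)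
    rw [h1]; exact bot_le

end Cfsg.Agent.H66
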