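import Cfsg.Agent.H66.Util2
import Cfsg.Agent.Solv.MinNormal
import Cfsg.Agent.S0041
import Cfsg.Agent.S1475

set_option autoImplicit false

namespace Cfsg.Agent.H66

open Cfsg

variable {G : Type*} [Group G]

/-- every element has prime power order -/
def Eppo (G : Type*) [Group G] : Prop := ∀ g : G, g ≠ 1 → IsPrimePow (orderOf g)

theorem Eppo.or (h : Eppo G) : ∀ g : G, IsPrimePow (orderOf g) ∨ g = 1 := fun g => by
  by_cases hg : g = 1
  · exact Or.inr hg
  · exact Or.inl (h g hg)

theorem Eppo.not_commute [Finite G] (h : Eppo G) {p r : ℕ} (hp : p.Prime) (hr : r.Prime) (hpr : p ≠ r) {a b : G}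
    (ha1 : a ≠ 1) (hb1 : b ≠ 1)
    (ha : ∃ k, a ^ p ^ k = 1) (hb : ∃ k, b ^ r ^ k = 1) (hab : a * b = b * a) : False :=
  S1475.not_commute h.or hp hr hpr ha1 hb1 ha hb hab

theorem Eppo.subgroup (h : Eppo G) (H : Subgroup G) : Eppo H := by
  intro g hg
  rw [← Subgroup.orderOf_coe]
  exact h _ (fun h1 => hg (Subtype.ext h1))

theorem Eppo.quotient [Finite G] (h : Eppo G) (N : Subgroup G) [N.Normal] : Eppo (G ⧸ N) := by
  intro g hg
  obtain ⟨x, rfl⟩ := QuotientGroup.mk'_surjective N g
  have hx : x ≠ 1 := by rintro rfl; exact hg (map_one _)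
  have h1 : orderOf (QuotientGroup.mk' N x) ∣ orderOf x := orderOf_map_dvd _ x
  have h2 : orderOf (QuotientGroup.mk' N x) ≠ 1 := fun h => hg (orderOf_eq_one_iff.1 h)
  exact (h x hx).dvd h1 h2

/-- centralizers of `p`-elements are `p`-groups -/
theorem Eppo.isPGroup_centralizer [Finite G] (h : Eppo G) {p : ℕ} (hp : p.Prime) {a : G} (ha1 : a ≠ 1)
    (ha : ∃ k, a ^ p ^ k = 1) : IsPGroup p (Subgroup.centralizer ({a} : Set G)) := by
  have hpf : Fact p.Prime := ⟨hp⟩
  have h1 : ∀ r : ℕ, r.Prime → r ∣ Nat.card (Subgroup.centralizer ({a} : Set G)) → r = p := by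
    intro r hr hrd
    by_contra hrp
    have hrf : Fact r.Prime := ⟨hr⟩
    obtain ⟨b, hb⟩ := exists_prime_orderOf_dvd_card' r hrd
    have hb' : orderOf (b : G) = r := by rw [Subgroup.orderOf_coe]; exact hb
    have hb1 : (b : G) ≠ 1 := by
      intro h0
      rw [h0, orderOf_one] at hb'
      exact hr.one_lt.ne hb'
    exact h.not_commute hp hr (fun h => hrp h.symm) ha1 hb1 ha ⟨1, by rw [pow_one, ← hb']; exact pow_orderOf_eq_one _⟩
      ((Subgroup.mem_centralizer_singleton_iff.1 b.2).symm)
  exact IsPGroup.of_card (Nat.eq_prime_pow_of_unique_prime_dvd Nat.card_pos.ne' (fun {r} hr hrd => h1 r hr hrd))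

theorem mem_pow_of_isPGroup {p : ℕ} {H : Subgroup G} (hH : IsPGroup p H) {x : G} (hx : x ∈ H) : ∃ k, x ^ p ^ k = 1 := by
  obtain ⟨k, hk⟩ := hH ⟨x, hx⟩
  exact ⟨k, by simpa using congrArg Subtype.val hk⟩

/-- In a non-solvable group whose elements have prime power order, a normal solvable subgroup is a `p`-group. -/
theorem Eppo.radical_isPGroup [Finite G] (h : Eppo G) (hns : ¬ Group.IsSolvable G) (R : Subgroup G) [R.Normal]
    (hRs : Group.IsSolvable R) : ∃ p : ℕ, p.Prime ∧ IsPGroup p R := by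
  classical
  by_cases hR1 : R = ⊥
  · refine ⟨2, Nat.prime_two, ?_⟩
    rw [hR1]
    exact IsPGroup.of_bot
  obtain ⟨A, hAn, hAR, hA1, hAmin⟩ := Solv.exists_minimal_normal R inferInstance hR1
  have hAs : Group.IsSolvable A := Group.isSolvable_of_isSolvable_injective (f := Subgroup.inclusion hAR) (Subgroup.inclusion_injective hAR)
  obtain ⟨hAc, _⟩ := Solv.minimal_normal_of_solvable A hAs hA1 hAmin
  obtain ⟨p, hp, hAp⟩ := Solv.minimal_normal_isPGroup A hAs hA1 hAmin
  have hpf : Fact p.Prime := ⟨hp⟩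
  set N := pCore p G with hN
  have hNp : IsPGroup p N := Solv.pCore_isPGroup p
  have hAN : A ≤ N := Solv.le_pCore hAn hAp
  by_cases hRN : R ≤ N
  · exact ⟨p, hp, hNp.to_le hRN⟩
  exfalso
  -- a minimal normal subgroup of G / N inside R N / N
  have hR' : R.map (QuotientGroup.mk' N) ≠ ⊥ := by
    intro h0
    apply hRN
    rw [Subgroup.map_eq_bot_iff, QuotientGroup.ker_mk'] at h0
    exact h0
  have hRn' : (R.map (QuotientGroup.mk' N)).Normal := inferInstance
  obtain ⟨B, hBn, hBR, hB1, hBmin⟩ := Solv.exists_minimal_normal _ hRn' hR'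
  have hRs' : Group.IsSolvable (R.map (QuotientGroup.mk' N)) :=
    Group.isSolvable_of_surjective (f := (QuotientGroup.mk' N).subgroupMap R) ((QuotientGroup.mk' N).subgroupMap_surjective R)
  have hBs : Group.IsSolvable B := Group.isSolvable_of_isSolvable_injective (f := Subgroup.inclusion hBR) (Subgroup.inclusion_injective hBR)
  obtain ⟨hBc, _⟩ := Solv.minimal_normal_of_solvable B hBs hB1 hBmin
  obtain ⟨q, hq, hBq⟩ := Solv.minimal_normal_isPGroup B hBs hB1 hBmin
  have hqf : Fact q.Prime := ⟨hq⟩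
  have hqp : q ≠ p := by
    intro hqp
    apply hB1
    rw [eq_bot_iff, ← Solv.pCore_quotient_pCore (G := G) p]
    exact Solv.le_pCore hBn (hqp ▸ hBq)
  set M := B.comap (QuotientGroup.mk' N) with hM
  have hMn : M.Normal := inferInstance
  obtain ⟨L0⟩ : Nonempty (Sylow q M) := inferInstance
  have hfr := L0.normalizer_sup_eq_top
  set L := (L0 : Subgroup M).map M.subtype with hL
  have hLq : IsPGroup q L := L0.isPGroup'.map _
  have hLM : L ≤ M := Subgroup.map_subtype_le _
  have hNM : N ≤ M := by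
    intro x hx
    rw [hM, Subgroup.mem_comap]
    have : QuotientGroup.mk' N x = 1 := (QuotientGroup.eq_one_iff x).mpr hx
    rw [this]; exact B.one_mem
  -- L maps onto B
  have hLN : L ⊓ N = ⊥ := by
    obtain ⟨k, hk⟩ := IsPGroup.iff_card.1 hLq
    obtain ⟨l, hl⟩ := IsPGroup.iff_card.1 hNp
    have : (Nat.card L).Coprime (Nat.card N) := by
      rw [hk, hl]
      exact Nat.Coprime.pow _ _ ((Nat.coprime_primes hq hp).2 hqp)
    exact (Subgroup.disjoint_of_coprime_natCard this).eq_bot
  have hmapL : L.map (QuotientGroup.mk' N) = B := by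
    let f : M →* B := ((QuotientGroup.mk' N).comp M.subtype).codRestrict B (fun x => x.2)
    have hf : Function.Surjective f := by
      rintro ⟨b, hb⟩
      obtain ⟨x, rfl⟩ := QuotientGroup.mk'_surjective N b
      exact ⟨⟨x, hb⟩, rfl⟩
    have h1 : ((L0.mapSurjective hf : Sylow q B) : Subgroup B) = ⊤ := by
      have h2 : IsPGroup q (⊤ : Subgroup B) := hBq.of_equiv Subgroup.topEquiv.symm
      exact ((L0.mapSurjective hf).is_maximal' h2 le_top).symm
    apply le_antisymm
    · rintro _ ⟨x, hx, rfl⟩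
      exact hLM hx
    · intro b hb
      have h3 : (⟨b, hb⟩ : B) ∈ ((L0.mapSurjective hf : Sylow q B) : Subgroup B) := by rw [h1]; exact Subgroup.mem_top _
      obtain ⟨x, hx, hxb⟩ := h3
      refine ⟨x, ⟨x, hx, rfl⟩, ?_⟩
      exact congrArg Subtype.val hxb
  -- L is abelian
  have hLc : IsMulCommutative L := by
    refine ⟨⟨fun a b => ?_⟩⟩
    have h1 : (QuotientGroup.mk' N) (a : G) ∈ B := by rw [← hmapL]; exact Subgroup.mem_map_of_mem _ a.2
    have h2 : (QuotientGroup.mk' N) (b : G) ∈ B := by rw [← hmapL]; exact Subgroup.mem_map_of_mem _ b.2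
    have h3 := Solv.comm_of_isMulCommutative hBc h1 h2
    have h4 : (a : G) * b * (a : G)⁻¹ * (b : G)⁻¹ ∈ N := by
      have h5 : (QuotientGroup.mk' N) ((a : G) * b * (a : G)⁻¹ * (b : G)⁻¹) = 1 := by
        rw [map_mul, map_mul, map_mul, map_inv, map_inv, h3]; group
      exact (QuotientGroup.eq_one_iff _).1 h5
    have h6 : (a : G) * b * (a : G)⁻¹ * (b : G)⁻¹ ∈ L ⊓ N :=
      ⟨L.mul_mem (L.mul_mem (L.mul_mem a.2 b.2) (L.inv_mem a.2)) (L.inv_mem b.2), h4⟩
    rw [hLN, Subgroup.mem_bot] at h6
    apply Subtype.ext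
    show (a : G) * b = b * a
    calc (a : G) * b = (a : G) * b * (a : G)⁻¹ * (b : G)⁻¹ * (b * a) := by group
      _ = b * a := by rw [h6, one_mul]
  have hL1 : L ≠ ⊥ := by
    intro h0
    rw [h0, Subgroup.map_bot] at hmapL
    exact hB1 hmapL.symm
  have hLcyc : IsCyclic L := by
    apply S0041.result L A hA1
    · have : Subgroup.normalizer (A : Set G) = ⊤ := Subgroup.normalizer_eq_top_iff.2 hAn
      rw [this]; exact le_top
    · intro a ha ha1
      rw [eq_bot_iff]
      rintro v ⟨hv1, hv2⟩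
      rw [Subgroup.mem_bot]
      by_contra hv
      exact h.not_commute hp hq (fun h => hqp h.symm) hv ha1 (mem_pow_of_isPGroup hAp hv1) (mem_pow_of_isPGroup hLq ha)
        (Subgroup.mem_centralizer_singleton_iff.1 hv2)
    · exact Or.inl hLc
  -- the normalizer of L is solvable
  have hCq : Group.IsSolvable ((Subgroup.centralizer (L : Set G)).subgroupOf (Subgroup.normalizer (L : Set G))) := by
    obtain ⟨⟨a, ha⟩, ha1⟩ := (Subgroup.ne_bot_iff_exists_ne_one).1 hL1
    have ha1' : a ≠ 1 := fun h0 => ha1 (Subtype.ext h0)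
    have h1 := h.isPGroup_centralizer hq ha1' (mem_pow_of_isPGroup hLq ha)
    have h2 : Subgroup.centralizer (L : Set G) ≤ Subgroup.centralizer ({a} : Set G) :=
      Subgroup.centralizer_le (Set.singleton_subset_iff.2 ha)
    have h3 : IsPGroup q (Subgroup.centralizer (L : Set G)) := h1.to_le h2
    have h4 : IsPGroup q ((Subgroup.centralizer (L : Set G)).subgroupOf (Subgroup.normalizer (L : Set G))) :=
      h3.comap_of_injective _ Subtype.val_injective
    have := h4.isNilpotent
    infer_instance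
  have hNL : Group.IsSolvable (Subgroup.normalizer (L : Set G)) := by
    let e := IsCyclic.mulAutMulEquiv L
    let f := e.toMonoidHom.comp (Subgroup.normalizerMonoidHom L)
    have hk : f.ker = (Subgroup.centralizer (L : Set G)).subgroupOf (Subgroup.normalizer (L : Set G)) := by
      rw [← Subgroup.normalizerMonoidHom_ker]
      ext x
      rw [MonoidHom.mem_ker, MonoidHom.mem_ker]
      show e (Subgroup.normalizerMonoidHom L x) = 1 ↔ _
      rw [map_eq_one_iff e e.injective]
    exact Group.isSolvable_of_ker_le_range ((Subgroup.centralizer (L : Set G)).subgroupOf (Subgroup.normalizer (L : Set G))).subtype f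
      (by rw [hk, Subgroup.range_subtype])
  have hQs : Group.IsSolvable (G ⧸ N) := by
    have h1 : (Subgroup.normalizer (L : Set G)).map (QuotientGroup.mk' N) = ⊤ := by
      have h2 : (Subgroup.normalizer (L : Set G) ⊔ M).map (QuotientGroup.mk' N) = ⊤ := by
        rw [hfr]
        exact Subgroup.map_top_of_surjective _ (QuotientGroup.mk'_surjective N)
      rw [Subgroup.map_sup] at h2
      have h3 : M.map (QuotientGroup.mk' N) ≤ (Subgroup.normalizer (L : Set G)).map (QuotientGroup.mk' N) := by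
        rw [hM, Subgroup.map_comap_eq_self_of_surjective (QuotientGroup.mk'_surjective N), ← hmapL]
        exact Subgroup.map_mono Subgroup.le_normalizer
      rw [sup_eq_left.2 h3] at h2
      exact h2
    let f := (QuotientGroup.mk' N).comp (Subgroup.normalizer (L : Set G)).subtype
    have hf : Function.Surjective f := by
      intro y
      have : y ∈ (Subgroup.normalizer (L : Set G)).map (QuotientGroup.mk' N) := by rw [h1]; exact Subgroup.mem_top _
      obtain ⟨x, hx, rfl⟩ := this
      exact ⟨⟨x, hx⟩, rfl⟩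
    exact Group.isSolvable_of_surjective (f := f) hf
  apply hns
  have hNs : Group.IsSolvable N := by
    have := hNp.isNilpotent
    infer_instance
  exact Group.isSolvable_of_ker_le_range N.subtype (QuotientGroup.mk' N)
    (by rw [QuotientGroup.ker_mk', Subgroup.range_subtype])

theorem not_isPGroup_exists_prime [Finite G] (H : Subgroup G) (h : ∀ p : ℕ, p.Prime → ¬ IsPGroup p H) (r : ℕ)
    (hr : r.Prime) : ∃ q : ℕ, q.Prime ∧ q ≠ r ∧ ∃ x ∈ H, x ≠ 1 ∧ ∃ k, x ^ q ^ k = 1 := by
  by_contra hcon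
  push Not at hcon
  apply h r hr
  apply IsPGroup.of_card (n := (Nat.card H).primeFactorsList.length)
  apply Nat.eq_prime_pow_of_unique_prime_dvd Nat.card_pos.ne'
  intro q hq hqd
  by_contra hqr
  have hqf : Fact q.Prime := ⟨hq⟩
  obtain ⟨x, hx⟩ := exists_prime_orderOf_dvd_card' q hqd
  have hx' : orderOf (x : G) = q := by rw [Subgroup.orderOf_coe]; exact hx
  have hx1 : (x : G) ≠ 1 := by
    intro h0
    rw [h0, orderOf_one] at hx'
    exact hq.one_lt.ne hx'
  exact hcon q hq hqr x x.2 hx1 1 (by rw [pow_one, ← hx']; exact pow_orderOf_eq_one _)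

/-- Structure of the socle. -/
theorem Eppo.socle [Finite G] (h : Eppo G) [Nontrivial G]
    (hrad : ∀ N : Subgroup G, N.Normal → Group.IsSolvable N → N = ⊥) :
    ∃ M : Subgroup G, M.Normal ∧ IsSimpleGroup M ∧ ¬ IsMulCommutative M ∧
        ∀ N : Subgroup G, N.Normal → N ≠ ⊥ → M ≤ N := by
  classical
  obtain ⟨M, hMn, _, hM1, hMmin⟩ := Solv.exists_minimal_normal (⊤ : Subgroup G) inferInstance (by
    intro h
    exact (Subgroup.nontrivial_iff_ne_bot (⊤ : Subgroup G)).mp inferInstance h)
  have hMns : ¬ Group.IsSolvable M := fun hs => hM1 (hrad M hMn hs)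
  have hMnp : ∀ p : ℕ, p.Prime → ¬ IsPGroup p M := by
    intro p hp hMp
    have hpf : Fact p.Prime := ⟨hp⟩
    apply hMns
    have := hMp.isNilpotent
    infer_instance
  have hMnt : Nontrivial M := (Subgroup.nontrivial_iff_ne_bot M).2 hM1
  refine ⟨M, hMn, ?_, ?_, ?_⟩
  · -- simple
    by_contra hns
    -- a minimal normal subgroup of M
    obtain ⟨T, hTn, _, hT1, hTmin⟩ := Solv.exists_minimal_normal (⊤ : Subgroup M) inferInstance (by
      intro h
      exact (Subgroup.nontrivial_iff_ne_bot (⊤ : Subgroup M)).mp inferInstance h)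
    have hTtop : T ≠ ⊤ := by
      intro hT
      apply hns
      refine { exists_pair_ne := hMnt.exists_pair_ne, eq_bot_or_eq_top_of_normal := fun K hK => ?_ }
      rcases hTmin K hK (hT ▸ le_top) with h1 | h1
      · exact Or.inl h1
      · exact Or.inr (h1.trans hT)
    set T' := T.map M.subtype with hT'
    have hT'1 : T' ≠ ⊥ := by
      intro h0
      exact hT1 ((Subgroup.map_eq_bot_iff_of_injective _ M.subtype_injective).1 h0)
    have hT'M : T' ≤ M := Subgroup.map_subtype_le _
    -- T is not a p-group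
    have hTnp : ∀ p : ℕ, p.Prime → ¬ IsPGroup p T' := by
      intro p hp hTp
      have hpf : Fact p.Prime := ⟨hp⟩
      have h1 : IsPGroup p T := by
        have := hTp.comap_subtype (K := M)
        have h2 : T'.subgroupOf M = T := Subgroup.comap_map_eq_self_of_injective M.subtype_injective T
        exact h2 ▸ this
      have h2 : T ≤ pCore p M := Solv.le_pCore hTn h1
      have h3 := Solv.map_subtype_pCore_le p M
      have h4 : T' ≤ pCore p G := (Subgroup.map_mono h2).trans h3
      have h5 : pCore p G = ⊥ := by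
        apply hrad _ inferInstance
        have := (Solv.pCore_isPGroup (G := G) p).isNilpotent
        infer_instance
      rw [h5, le_bot_iff] at h4
      exact hT'1 h4
    -- T' is not normal in G
    have hT'n : ¬ T'.Normal := by
      intro hn
      rcases hMmin T' hn hT'M with h1 | h1
      · exact hT'1 h1
      · apply hTtop
        rw [eq_top_iff]
        intro x _
        have : (x : G) ∈ T' := by rw [h1]; exact x.2
        obtain ⟨y, hy, hyx⟩ := this
        rwa [← Subtype.ext hyx]
    obtain ⟨g, hg⟩ : ∃ g : G, ¬ T' ≤ T'.comap (MulAut.conj g).toMonoidHom := by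
      by_contra hcon
      push Not at hcon
      exact hT'n ⟨fun x hx g => hcon g hx⟩
    -- the conjugate
    set U := T'.comap (MulAut.conj g).toMonoidHom with hU
    have hUM : U ≤ M := by
      intro x hx
      have h1 : g * x * g⁻¹ ∈ M := hT'M hx
      have h2 := hMn.conj_mem _ h1 g⁻¹
      convert h2 using 1
      group
    have hTM : ∀ m ∈ M, ∀ t ∈ T', m * t * m⁻¹ ∈ T' := by
      rintro m hm _ ⟨t, ht, rfl⟩
      exact ⟨⟨m, hm⟩ * t * ⟨m, hm⟩⁻¹, hTn.conj_mem t ht _, rfl⟩
    have hUMn : ∀ m ∈ M, ∀ t ∈ U, m * t * m⁻¹ ∈ U := by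
      intro m hm t ht
      show g * (m * t * m⁻¹) * g⁻¹ ∈ T'
      have h1 := hTM (g * m * g⁻¹) (hMn.conj_mem m hm g) (g * t * g⁻¹) ht
      convert h1 using 1
      group
    have hUn : (U.subgroupOf M).Normal := ⟨fun t ht m => hUMn m m.2 t ht⟩
    have hinf : T ⊓ U.subgroupOf M = ⊥ := by
      rcases hTmin (T ⊓ U.subgroupOf M) inferInstance inf_le_left with h1 | h1
      · exact h1
      · exfalso
        apply hg
        rintro _ ⟨t, ht, rfl⟩
        rw [← h1] at ht
        exact ht.2
    have hcomm : ∀ t ∈ T', ∀ u ∈ U, t * u = u * t := by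
      rintro _ ⟨t, ht, rfl⟩ u hu
      have h1 : t * ⟨u, hUM hu⟩ * t⁻¹ * (⟨u, hUM hu⟩ : M)⁻¹ ∈ T ⊓ U.subgroupOf M := by
        refine ⟨?_, ?_⟩
        · rw [mul_assoc, mul_assoc]
          refine T.mul_mem ht ?_
          rw [← mul_assoc]
          exact hTn.conj_mem _ (T.inv_mem ht) _
        · refine (U.subgroupOf M).mul_mem (hUn.conj_mem _ (Subgroup.mem_subgroupOf.2 hu) _) ?_
          exact (U.subgroupOf M).inv_mem (Subgroup.mem_subgroupOf.2 hu)
      rw [hinf, Subgroup.mem_bot] at h1
      have h2 := congrArg Subtype.val h1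
      have h3 : (t : G) * u * (t : G)⁻¹ * u⁻¹ = 1 := h2
      calc (t : G) * u = (t : G) * u * (t : G)⁻¹ * u⁻¹ * (u * t) := by group
        _ = u * t := by rw [h3, one_mul]
    -- find commuting elements
    obtain ⟨q, hq, _, x, hxT, hx1, k, hk⟩ := not_isPGroup_exists_prime T' hTnp 2 Nat.prime_two
    obtain ⟨r, hr, hrq, y, hyT, hy1, l, hl⟩ := not_isPGroup_exists_prime T' hTnp q hq
    refine h.not_commute hq hr (fun h => hrq h.symm) hx1 (b := g⁻¹ * y * g) ?_ ⟨k, hk⟩ ⟨l, ?_⟩ ?_
    · intro h0
      apply hy1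
      calc y = g * (g⁻¹ * y * g) * g⁻¹ := by group
        _ = 1 := by rw [h0]; group
    · have := conj_pow (a := g⁻¹) (b := y) (i := r ^ l)
      rw [inv_inv] at this
      rw [this, hl]; group
    · apply hcomm x hxT
      show g * (g⁻¹ * y * g) * g⁻¹ ∈ T'
      convert hyT using 1
      group
  · intro hc
    apply hMns
    exact Group.isSolvable_of_comm (fun a b => hc.is_comm.comm a b)
  · intro N hN hN1
    have hinf : (N ⊓ M).Normal := inferInstance
    rcases hMmin (N ⊓ M) hinf inf_le_right with h1 | h1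
    · exfalso
      -- N and M commute
      have hcomm : ∀ a ∈ N, ∀ b ∈ M, a * b = b * a := by
        intro a ha b hb
        have h2 : a * b * a⁻¹ * b⁻¹ ∈ N ⊓ M := by
          refine ⟨?_, ?_⟩
          · rw [mul_assoc, mul_assoc]
            refine N.mul_mem ha ?_
            rw [← mul_assoc]
            exact hN.conj_mem _ (N.inv_mem ha) _
          · exact M.mul_mem (hMn.conj_mem _ hb _) (M.inv_mem hb)
        rw [h1, Subgroup.mem_bot] at h2
        calc a * b = a * b * a⁻¹ * b⁻¹ * (b * a) := by group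
          _ = b * a := by rw [h2, one_mul]
      have hNnp : ∀ p : ℕ, p.Prime → ¬ IsPGroup p N := by
        intro p hp hNp
        have hpf : Fact p.Prime := ⟨hp⟩
        apply hN1
        apply hrad N hN
        have := hNp.isNilpotent
        infer_instance
      obtain ⟨q, hq, _, x, hxT, hx1, k, hk⟩ := not_isPGroup_exists_prime N hNnp 2 Nat.prime_two
      obtain ⟨r, hr, hrq, y, hyT, hy1, l, hl⟩ := not_isPGroup_exists_prime M hMnp q hq
      exact h.not_commute hq hr (fun h => hrq h.symm) hx1 hy1 ⟨k, hk⟩ ⟨l, hl⟩ (hcomm x hxT y hyT)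
    · rw [← h1]; exact inf_le_left

end Cfsg.Agent.H66
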