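import Mathlib

set_option autoImplicit false

namespace Cfsg.Agent.H66

variable {G : Type*} [Group G]

theorem rank_le_one_of_isCyclic [Finite G] (h : IsCyclic G) : Group.rank G ≤ 1 := by
  obtain ⟨g, hg⟩ := h.exists_generator
  have h1 : Subgroup.closure (({g} : Finset G) : Set G) = ⊤ := by
    rw [Finset.coe_singleton, ← Subgroup.zpowers_eq_closure, eq_top_iff]
    intro x _
    exact hg x
  exact (Group.rank_le h1).trans (by simp)

theorem rank_le_two_of_index [Finite G] (C : Subgroup G) (hC : IsCyclic C) (hi : C.index ≤ 2) :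
    Group.rank G ≤ 2 := by
  classical
  obtain ⟨c, hc⟩ := hC.exists_generator
  obtain ⟨y, hy⟩ : ∃ y : G, C = ⊤ ∨ y ∉ C := by
    by_cases h : C = ⊤
    · exact ⟨1, Or.inl h⟩
    · obtain ⟨y, hy⟩ : ∃ y, y ∉ C := by
        by_contra hcon
        push Not at hcon
        exact h (eq_top_iff.2 (fun x _ => hcon x))
      exact ⟨y, Or.inr hy⟩
  have h1 : Subgroup.closure (({(c : G), y} : Finset G) : Set G) = ⊤ := by
    rw [Finset.coe_pair]
    have hCle : C ≤ Subgroup.closure ({(c : G), y} : Set G) := by
      intro x hx
      obtain ⟨k, hk⟩ := Subgroup.mem_zpowers_iff.1 (hc ⟨x, hx⟩)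
      have h2 : (c : G) ^ k = x := by simpa using congrArg Subtype.val hk
      rw [← h2]
      exact Subgroup.zpow_mem _ (Subgroup.subset_closure (by simp)) k
    have hyle : y ∈ Subgroup.closure ({(c : G), y} : Set G) := Subgroup.subset_closure (by simp)
    rcases hy with h | h
    · rw [eq_top_iff, ← h]; exact hCle
    · rw [← Subgroup.index_eq_one]
      by_contra hne
      have h2 := Subgroup.relIndex_mul_index hCle
      have h3 : (Subgroup.closure ({(c : G), y} : Set G)).index ≠ 0 := Subgroup.index_ne_zero_of_finite
      have h4 : C.relIndex (Subgroup.closure ({(c : G), y} : Set G)) ≠ 0 := by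
        intro h0
        rw [h0, zero_mul] at h2
        exact (Subgroup.index_ne_zero_of_finite (H := C)) h2.symm
      have h5 : C.relIndex (Subgroup.closure ({(c : G), y} : Set G)) = 1 := by
        by_contra h6
        have h7 : 2 ≤ C.relIndex (Subgroup.closure ({(c : G), y} : Set G)) := by omega
        have h8 : 2 ≤ (Subgroup.closure ({(c : G), y} : Set G)).index := by omega
        have := Nat.mul_le_mul h7 h8
        omega
      rw [Subgroup.relIndex_eq_one] at h5
      exact h (h5 hyle)
  exact (Group.rank_le h1).trans (Finset.card_le_two)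

end Cfsg.Agent.H66
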